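import Cfsg.Agent.Fischer.Fi23Cover
import Cfsg.Agent.S1697

/-!
Relations between words in the generators of `Fi23` and `z0`, checked in the action of degree 31671.
-/

set_option autoImplicit false
set_option linter.constructorNameAsVariable false
set_option maxRecDepth 100000
set_option Elab.async false

namespace Cfsg.Agent.R08.X4Rel

open Cfsg.Agent.Lib.PermNet Cfsg.Agent.Fischer.Fi23Nets Cfsg.Agent.Fischer.Fi23Rel
  Cfsg.Agent.Fischer.Fi23Hom Cfsg.Agent.Fischer.Fi23Orb Cfsg.Agent.Fischer.Fi23OrbData
  Cfsg.Agent.Fischer.Fi23Z Cfsg.Agent.Fischer.Fi23Final Cfsg.Agent.Fischer.Fi23Class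
open Cfsg.Spor Cfsg.Spor.Fi23

theorem card_fi23 : Nat.card Fi23 = 4089470473293004800 := (Cfsg.Agent.S1697.result).2

instance finite_fi23 : Finite Fi23 := Nat.finite_of_card_ne_zero (by rw [card_fi23]; norm_num)

theorem card_le : Nat.card Fi23 ≤ 4089470473293004800 := card_fi23.le

/-- The generators of `Fi23` and `z0`. -/
inductive Lt
  | a | b | c | d | e | f | g | j | h | i | z
  deriving DecidableEq

/-- The element of a letter. -/
noncomputable def Lt.el : Lt → Fi23
  | .a => gen .a | .b => gen .b | .c => gen .c | .d => gen .d | .e => gen .e | .f => gen .f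
  | .g => gen .g | .j => gen .j | .h => gen .h | .i => gen .i | .z => z0

/-- The network of a letter. -/
noncomputable def Lt.net : Lt → Net
  | .a => na | .b => nb | .c => nc | .d => nd | .e => ne | .f => nf
  | .g => ng | .j => nj | .h => nh | .i => ni | .z => nz

theorem rho_el (x : Lt) : rho x.el = x.net.perm := by
  cases x
  all_goals first
    | exact rho_gen _
    | exact rho_z0

theorem net_ok (x : Lt) : x.net.ok (2 ^ 15) = true := by
  cases x
  · exact ok_a
  · exact ok_b
  · exact ok_c
  · exact ok_d
  · exact ok_e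
  · exact ok_f
  · exact ok_g
  · exact ok_j
  · exact ok_h
  · exact ok_i
  · exact ok_z

/-- The element of a word. -/
noncomputable def ev (w : List Lt) : Fi23 := (w.map Lt.el).prod

@[simp] theorem ev_nil : ev [] = 1 := rfl

theorem ev_cons (x : Lt) (w : List Lt) : ev (x :: w) = x.el * ev w := by
  unfold ev; rw [List.map_cons, List.prod_cons]

theorem ev_append (u v : List Lt) : ev (u ++ v) = ev u * ev v := by
  unfold ev; rw [List.map_append, List.prod_append]

theorem rho_ev (w : List Lt) : rho (ev w) = wperm (w.map Lt.net) := by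
  induction w with
  | nil => simp
  | cons x w ih => rw [ev_cons, map_mul, rho_el, List.map_cons, wperm_cons, ih]

theorem wok (w : List Lt) : WOk (2 ^ 15) (w.map Lt.net) := by
  induction w with
  | nil => exact WOk.nil _
  | cons x w ih => exact WOk.cons (net_ok x) ih

theorem ev_eq {u v : List Lt} (h : checkEq 15 (u.map Lt.net) (v.map Lt.net) = true) :
    ev u = ev v := by
  apply rho_injective card_le
  rw [rho_ev, rho_ev]
  exact wperm_eq_of_checkEq (wok u) (wok v) h

/-- The comparison of two words. -/
noncomputable def chk (u v : List Lt) : Bool := checkEq 15 (u.map Lt.net) (v.map Lt.net)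

theorem ev_eq' {u v : List Lt} (h : chk u v = true) : ev u = ev v := ev_eq h

theorem el_sq (x : Lt) : x.el * x.el = 1 := by
  cases x
  all_goals first
    | exact gen_sq _
    | exact z0_sq card_le

theorem ev_reverse (w : List Lt) : ev w.reverse = (ev w)⁻¹ := by
  induction w with
  | nil => simp
  | cons x w ih =>
    rw [List.reverse_cons, ev_append, ih, ev_cons, ev_cons, ev_nil, mul_one, mul_inv_rev,
      inv_eq_of_mul_eq_one_left (el_sq x)]

/-- Powers of words. -/
def pw (n : ℕ) (w : List Lt) : List Lt := (List.replicate n w).flatten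

theorem ev_pw (n : ℕ) (w : List Lt) : ev (pw n w) = ev w ^ n := by
  unfold pw
  induction n with
  | zero => simp
  | succ n ih => rw [List.replicate_succ, List.flatten_cons, ev_append, ih, pow_succ']

/-! ### The words -/

/-- Conjugation by `q` swaps the blocks `(3 4 5 6)` and `(7 8 9 10)`. -/
def q : List Lt := [.d, .c, .b, .a, .e, .d, .c, .b, .f, .e, .d, .c, .g, .f, .e, .d]

/-- The second vertex of type `h`. -/
def y : List Lt := q ++ (.h :: q.reverse)

/-- The element `(3 11)`. -/
def m : List Lt := [.a, .b, .c, .d, .e, .f, .g, .j, .g, .f, .e, .d, .c, .b, .a]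

/-- The element `(3 12)`. -/
def X : List Lt := m ++ (.z :: m)

/-- The element `(9 11)(10 12)`. -/
def t' : List Lt := [.j, .g, .z, .j]

/-- The element `(3 10)`. -/
def X' : List Lt := [.a, .b, .c, .d, .e, .f, .g, .f, .e, .d, .c, .b, .a]

/-- The element `(3 11)(4 12)`. -/
def p : List Lt := X ++ (.a :: .z :: X)

/-- A word moving `(9, 10)` to `(3, 4)`. -/
def e0 : List Lt := [.b, .c, .d, .e, .f, .g, .a, .b, .c, .d, .e, .f]

/-- `t' y t' = w1⁻¹ h w1`. -/
def w1 : List Lt := [.d, .c, .b, .a, .e, .d, .c, .b, .f, .e, .d, .c, .g, .f, .h, .d]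

/-- `t' y t' = w2⁻¹ y w2`. -/
def w2 : List Lt := .d :: .c :: .b :: .a :: .e :: .d :: .c :: .b :: .f :: .e :: .d :: .c :: .g :: .f :: (y ++ [.d])

/-- The element `(8 10)`. -/
def r0 : List Lt := [.f, .g, .f]

/-- The comparison of two words on the bit planes `s, …, s + n - 1`. -/
private noncomputable def part (s n : ℕ) (u v : List Lt) : Bool :=
  Nat.rec (motive := fun _ => Bool) true
    (fun b ih => and (checkPlane 15 (u.map Lt.net) (v.map Lt.net) (Nat.add s b)) ih) n

private theorem part_spec {s : ℕ} {u v : List Lt} : ∀ {n : ℕ}, part s n u v = true →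
    ∀ b < n, checkPlane 15 (u.map Lt.net) (v.map Lt.net) (s + b) = true := by
  intro n
  induction n with
  | zero => intro _ b hb; omega
  | succ n ih =>
    intro h b hb
    have h' : and (checkPlane 15 (u.map Lt.net) (v.map Lt.net) (s + n)) (part s n u v) = true := h
    rw [Bool.and_eq_true] at h'
    rcases Nat.lt_succ_iff_lt_or_eq.1 hb with hb | rfl
    · exact ih h'.2 b hb
    · exact h'.1

private theorem planes_of {k : ℕ} {w w' : List Net} : ∀ {m : ℕ}, (∀ b < m, checkPlane k w w' b = true) →
    checkPlanes k w w' m = true := by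
  intro m
  induction m with
  | zero => intro _; rfl
  | succ m ih =>
    intro h
    show and (checkPlane k w w' m) (checkPlanes k w w' m) = true
    rw [Bool.and_eq_true]
    exact ⟨h m (Nat.lt_succ_self m), ih fun b hb => h b (Nat.lt_succ_of_lt hb)⟩

/-- The comparison of two words, five times three bit planes. -/
private theorem chk_parts {u v : List Lt} (h0 : part 0 3 u v = true) (h1 : part 3 3 u v = true)
    (h2 : part 6 3 u v = true) (h3 : part 9 3 u v = true) (h4 : part 12 3 u v = true) : chk u v = true := by
  show checkPlanes 15 (u.map Lt.net) (v.map Lt.net) 15 = true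
  refine planes_of fun b hb => ?_
  have k0 := part_spec h0
  have k1 := part_spec h1
  have k2 := part_spec h2
  have k3 := part_spec h3
  have k4 := part_spec h4
  rcases lt_or_ge b 3 with g | g
  · have h := k0 b g
    rwa [Nat.zero_add] at h
  rcases lt_or_ge b 6 with g1 | g1
  · have h := k1 (b - 3) (by omega)
    rwa [Nat.add_sub_cancel' g] at h
  rcases lt_or_ge b 9 with g2 | g2
  · have h := k2 (b - 6) (by omega)
    rwa [Nat.add_sub_cancel' g1] at h
  rcases lt_or_ge b 12 with g3 | g3
  · have h := k3 (b - 9) (by omega)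
    rwa [Nat.add_sub_cancel' g2] at h
  · have h := k4 (b - 12) (by omega)
    rwa [Nat.add_sub_cancel' g3] at h

theorem ck_q : chk (q ++ q) ([]) = true := by decide +kernel
theorem ck_ya : chk (y ++ [.a]) (.a :: y) = true := by decide +kernel
theorem ck_yb : chk (y ++ [.b]) (.b :: y) = true := by decide +kernel
theorem ck_yc : chk (y ++ [.c]) (.c :: y) = true := by decide +kernel
theorem ck_ye : chk (y ++ [.e]) (.e :: y) = true := by decide +kernel
theorem ck_yf : chk (y ++ [.f]) (.f :: y) = true := by decide +kernel
theorem ck_yg : chk (y ++ [.g]) (.g :: y) = true := by decide +kernel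
theorem ck_yd : chk (pw 3 (.d :: y)) ([]) = true := chk_parts (by decide +kernel) (by decide +kernel) (by decide +kernel)
  (by decide +kernel) (by decide +kernel)
theorem ck_yi : chk (pw 3 (y ++ [.i])) ([]) = true := chk_parts (by decide +kernel) (by decide +kernel) (by decide +kernel)
  (by decide +kernel) (by decide +kernel)
theorem ck_e7 : chk (pw 9 (.a :: .b :: .c :: .d :: .e :: .f :: y)) ([.z]) = true := chk_parts (by decide +kernel) (by decide +kernel) (by decide +kernel)
  (by decide +kernel) (by decide +kernel)
theorem ck_sp : chk (pw 10 (.d :: .c :: .b :: .d :: .e :: .f :: .d :: (y ++ [.i]))) ([]) = true := chk_parts (by decide +kernel) (by decide +kernel) (by decide +kernel)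
  (by decide +kernel) (by decide +kernel)
theorem ck_z : chk (pw 9 (.b :: .c :: .d :: .e :: .f :: .g :: y)) ([]) = true := chk_parts (by decide +kernel) (by decide +kernel) (by decide +kernel)
  (by decide +kernel) (by decide +kernel)
theorem ck_zX : chk (pw 3 (.z :: X)) ([]) = true := chk_parts (by decide +kernel) (by decide +kernel) (by decide +kernel)
  (by decide +kernel) (by decide +kernel)
theorem ck_Xb : chk (X ++ [.b]) (.b :: X) = true := by decide +kernel
theorem ck_Xc : chk (X ++ [.c]) (.c :: X) = true := by decide +kernel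
theorem ck_Xd : chk (X ++ [.d]) (.d :: X) = true := by decide +kernel
theorem ck_Xe : chk (X ++ [.e]) (.e :: X) = true := by decide +kernel
theorem ck_Xf : chk (X ++ [.f]) (.f :: X) = true := by decide +kernel
theorem ck_Xg : chk (X ++ [.g]) (.g :: X) = true := by decide +kernel
theorem ck_Xi : chk (X ++ [.i]) (.i :: X) = true := by decide +kernel
theorem ck_Xy : chk (X ++ y) (y ++ X) = true := chk_parts (by decide +kernel) (by decide +kernel) (by decide +kernel)
  (by decide +kernel) (by decide +kernel)
theorem ck_aX : chk (pw 3 (.a :: X)) ([]) = true := chk_parts (by decide +kernel) (by decide +kernel) (by decide +kernel)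
  (by decide +kernel) (by decide +kernel)
theorem ck_zX' : chk (t' ++ (.g :: (X' ++ t'))) (.z :: X) = true := by decide +kernel
theorem ck_j : chk (r0 ++ (t' ++ (.f :: (t' ++ r0)))) ([.j]) = true := by decide +kernel
theorem ck_tz : chk (t' ++ (.z :: t')) ([.g]) = true := by decide +kernel
theorem ck_p : chk (e0 ++ (t' ++ e0.reverse)) (p) = true := by decide +kernel
theorem ck_w1 : chk (w1.reverse ++ (.h :: w1)) (t' ++ (y ++ t')) = true := by decide +kernel
theorem ck_w2 : chk (w2.reverse ++ (y ++ w2)) (t' ++ (y ++ t')) = true := chk_parts (by decide +kernel)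
  (by decide +kernel) (by decide +kernel) (by decide +kernel) (by decide +kernel)

end Cfsg.Agent.R08.X4Rel
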